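import Cfsg.Agent.FischerGQ.Cert.Six.Data

/-! Generated: checks of the rows. -/

set_option autoImplicit false
set_option maxRecDepth 100000

namespace CfsgLib.FischerGQ.Cert.Six

open CfsgLib.CosetEnum

theorem rows0 : allFrom (checkRow epF (fun x => x) 1801 5 nodeF TF tfF 720) 0 256 = true := by
  decide +kernel

theorem rows256 : allFrom (checkRow epF (fun x => x) 1801 5 nodeF TF tfF 720) 256 256 = true := by
  decide +kernel

theorem rows512 : allFrom (checkRow epF (fun x => x) 1801 5 nodeF TF tfF 720) 512 208 = true := by
  decide +kernel

end CfsgLib.FischerGQ.Cert.Six
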